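import Cfsg.Agent.OutD4.Grp
import Cfsg.Agent.AutChev.OutStr
import Cfsg.Agent.Tw3.RowsD4
import Cfsg.Agent.ChevU.All

set_option autoImplicit false
set_option maxRecDepth 100000

/-!
The outer automorphism group of the group of type D4 over the field of three elements.
-/

namespace Cfsg.Agent.OutD4

open Cfsg.Lie Cfsg.Agent.Chev Cfsg.Agent.ChevGrp Cfsg.Agent.ChevTw Cfsg.Agent.ChevWeyl Cfsg.Agent.ChevU Cfsg.Agent.AutChev
open Cfsg.Agent.Tw3 Cfsg.Agent.ChevGrp.DData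

section generic

variable {D : ChevalleyDatum} {H : Good D} {F : Type*} [Field F]

theorem dat_mul {θ θ' : MulAut ↥(D.group F)} {ρ ρ' : Equiv.Perm (Fin D.rank)} {c c' : Fin D.rank → F}
    (h : IsDat H θ ρ c (fun _ => RingEquiv.refl F)) (h' : IsDat H θ' ρ' c' (fun _ => RingEquiv.refl F)) :
    IsDat H (θ * θ') (ρ * ρ') (fun i => c (ρ' i) * c' i) (fun _ => RingEquiv.refl F) := h.mul h'

theorem dat_one : IsDat H (1 : MulAut ↥(D.group F)) 1 (fun _ => 1) (fun _ => RingEquiv.refl F) := by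
  have h3 := isDat_dHom (H := H) (F := F) (1 : Fin D.rank → Fˣ)
  have h4 : (dHom H (1 : Fin D.rank → Fˣ)) = 1 := map_one _
  rw [h4] at h3
  exact h3

theorem eq_of_dat {θ θ' : MulAut ↥(D.group F)} {ρ : Equiv.Perm (Fin D.rank)} {c : Fin D.rank → F}
    {σ : Fin D.rank → (F ≃+* F)} (h : IsDat H θ ρ c σ) (h' : IsDat H θ' ρ c σ) : θ = θ' := by
  have key : (θ : ↥(D.group F) →* ↥(D.group F)) = (θ' : ↥(D.group F) →* ↥(D.group F)) := by
    apply aut_ext H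
    intro i hi t
    exact ⟨(((h ⟨i, hi⟩).2 t).1).trans (((h' ⟨i, hi⟩).2 t).1).symm, (((h ⟨i, hi⟩).2 t).2).trans (((h' ⟨i, hi⟩).2 t).2).symm⟩
  apply MulEquiv.ext
  intro y
  exact DFunLike.congr_fun key y

variable (H) (E : DData D) [Finite F]

/-- automorphisms in the kernel -/
theorem ker_dat (R : RootFacts D) {κ : A0 (chevG E H F)} (h : outHom H E κ = 1) : ∃ e : Fin D.rank → Fˣ,
    IsDat H κ.1 1 (fun i => ((mon (cmat D) e i : Fˣ) : F)) (fun _ => RingEquiv.refl F) := by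
  obtain ⟨θ, hθ⟩ := κ
  obtain ⟨g, hg⟩ : θ ∈ Cfsg.Inn ↥(D.group F) := (QuotientGroup.eq_one_iff _).1 h
  subst hg
  have h1 : g ∈ (chevG E H F).H := (conj_mem_A0 (chevG_Grp E H)).1 hθ
  rw [chevG_H, Subgroup.mem_subgroupOf, diag_eq_range R H] at h1
  obtain ⟨c, hc⟩ := h1
  refine ⟨c, ?_⟩
  have : (MulAut.conj g : MulAut ↥(D.group F)) = dHom H (mon (cmat D) c) := by
    apply MulEquiv.ext
    intro y
    apply Subtype.ext
    rw [dHom_coe]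
    have h2 : (g : GL D.Idx F) = torHom D F (extHom D F (mon (cmat D) c)) := hc.symm
    rw [← h2]
    rfl
  show IsDat H (MulAut.conj g : MulAut ↥(D.group F)) 1 (fun i => ((mon (cmat D) c i : Fˣ) : F)) (fun _ => RingEquiv.refl F)
  rw [this]
  exact isDat_dHom (H := H) (mon (cmat D) c)

/-- diagonal automorphisms from the torus are inner -/
theorem out_of_dat (R : RootFacts D) {κ : A0 (chevG E H F)} {e : Fin D.rank → Fˣ}
    (h : IsDat H κ.1 1 (fun i => ((mon (cmat D) e i : Fˣ) : F)) (fun _ => RingEquiv.refl F)) :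
    outHom H E κ = 1 := by
  have hm : hHom D F e ∈ D.group F := by
    have h1 : hHom D F e ∈ D.diagonalSubgroup F := by
      rw [diag_eq_range R H]; exact ⟨e, rfl⟩
    exact Cfsg.Agent.ChevGrp.H_le_group E H h1
  have : κ.1 = MulAut.conj (⟨hHom D F e, hm⟩ : ↥(D.group F)) := by
    refine (eq_of_dat h (isDat_dHom (H := H) (mon (cmat D) e))).trans ?_
    apply MulEquiv.ext
    intro y
    apply Subtype.ext
    rw [dHom_coe]
    rfl
  show ((κ.1 : MulAut ↥(D.group F)) : Cfsg.Out ↥(D.group F)) = 1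
  rw [this]
  exact (QuotientGroup.eq_one_iff _).2 ⟨_, rfl⟩

end generic

abbrev F3 := ZMod 3

instance : Fact (Nat.Prime 3) := ⟨Nat.prime_three⟩

theorem hD4 : chevD4 ∈ types7 := by simp [types7]

/-- the facts about roots -/
noncomputable def rf4 : RootFacts chevD4 := (nonempty_rootFacts hD4).some

theorem ring_aut (σ : F3 ≃+* F3) : σ = RingEquiv.refl F3 := by
  ext x
  have := RingHom.congr_fun (Subsingleton.elim (σ : F3 →+* F3) (RingHom.id F3)) x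
  exact this

noncomputable abbrev A4 := A0 (chevG dD4 goodD4 F3)

theorem dat (θ : A4) : ∃ c : Fin chevD4.rank → F3, IsDat goodD4 θ.1 (permHom goodD4 dD4 θ) c (fun _ => RingEquiv.refl F3) := by
  obtain ⟨c, σ, h⟩ := permHom_dat goodD4 dD4 θ
  have : σ = fun _ => RingEquiv.refl F3 := funext fun i => ring_aut (σ i)
  rw [this] at h
  exact ⟨c, h⟩

/-- the classes of diagonal automorphisms -/
noncomputable def DN : Subgroup (Cfsg.Out ↥(chevD4.group F3)) :=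
  (permHom goodD4 dD4 (F := F3)).ker.map (outHom goodD4 dD4)

instance : DN.Normal := Subgroup.Normal.map inferInstance _ (outHom_surj goodD4 dD4 rf4)

theorem ker_out_le : (outHom goodD4 dD4 (F := F3)).ker ≤ (permHom goodD4 dD4 (F := F3)).ker :=
  (ker_outHom goodD4 dD4 rf4).trans (by rw [ker_permHom goodD4 dD4 hD4]; exact le_sup_left)

theorem mem_DN {θ : A4} : outHom goodD4 dD4 θ ∈ DN ↔ permHom goodD4 dD4 θ = 1 := by
  constructor
  · rintro ⟨η, hη, e⟩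
    have h1 : η⁻¹ * θ ∈ (outHom goodD4 dD4 (F := F3)).ker := by
      rw [MonoidHom.mem_ker, map_mul, map_inv, e, inv_mul_cancel]
    have h2 := ker_out_le h1
    rw [MonoidHom.mem_ker, map_mul, map_inv] at h2
    have h3 : permHom goodD4 dD4 η = 1 := hη
    rw [h3, inv_one, one_mul] at h2
    exact h2
  · intro h
    exact ⟨θ, h, rfl⟩

theorem perm_one {θ : A4} : permHom goodD4 dD4 θ (1 : Fin 4) = (1 : Fin 4) := by
  obtain ⟨c, h⟩ := dat θ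
  exact rigid_D4 _ (fun i j hij => h.adj hij)

theorem index_DN : DN.index = 6 := by
  have h1 := index_eq (F := F3) goodD4 dD4 hD4 rf4
  rw [← ker_permHom goodD4 dD4 hD4] at h1
  have h3 : ∀ ρ : Equiv.Perm (Fin 4), HasGraph dD4 goodD4 F3 (ρ : Equiv.Perm (Fin chevD4.rank)) ↔ ρ 1 = 1 := by
    intro ρ
    constructor
    · intro h
      obtain ⟨θ, c, σ, hd⟩ := h.dat
      exact rigid_D4 ρ (fun i j hij => hd.adj hij)
    · intro h
      exact hasGraph_D4 dD4 goodD4 F3 ρ h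
  have h4 : Nat.card {ρ : Equiv.Perm (Fin 4) // ρ 1 = 1} = 6 := by
    rw [Nat.card_eq_fintype_card]; decide
  rw [← h4]
  exact h1.trans (Nat.card_congr (Equiv.subtypeEquivRight h3))

theorem sq_one : ∀ c : F3, c ≠ 0 → c * c = 1 := by decide

theorem sq_DN : ∀ x ∈ DN, x * x = 1 := by
  rintro _ ⟨θ, hθ, rfl⟩
  rw [← map_mul]
  have h1 : θ * θ = 1 := by
    apply Subtype.ext
    obtain ⟨c, h⟩ := dat θ
    have hθ' : permHom goodD4 dD4 θ = 1 := hθ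
    rw [hθ'] at h
    have h2 := dat_mul h h
    have e1 : (1 : Equiv.Perm (Fin chevD4.rank)) * 1 = 1 := one_mul 1
    have e2 : (fun i => c ((1 : Equiv.Perm (Fin chevD4.rank)) i) * c i) = fun _ => 1 := funext fun i => sq_one _ (h i).1
    rw [e1, e2] at h2
    exact eq_of_dat h2 dat_one
  rw [h1, map_one]

/-- indices -/
abbrev i0 : Fin chevD4.rank := ⟨0, by decide⟩
/-- indices -/
abbrev i1 : Fin chevD4.rank := ⟨1, by decide⟩
/-- indices -/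
abbrev i2 : Fin chevD4.rank := ⟨2, by decide⟩
/-- indices -/
abbrev i3 : Fin chevD4.rank := ⟨3, by decide⟩

theorem i_cases (i : Fin chevD4.rank) : i = i0 ∨ i = i1 ∨ i = i2 ∨ i = i3 := by
  have : ∀ i : Fin 4, i = 0 ∨ i = 1 ∨ i = 2 ∨ i = 3 := by decide
  exact this i

theorem cmat_D4 : (cmat chevD4 i0 i0 = 2 ∧ cmat chevD4 i1 i0 = -1 ∧ cmat chevD4 i2 i0 = 0 ∧ cmat chevD4 i3 i0 = 0) ∧
    (cmat chevD4 i0 i1 = -1 ∧ cmat chevD4 i1 i1 = 2 ∧ cmat chevD4 i2 i1 = -1 ∧ cmat chevD4 i3 i1 = -1) ∧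
    (cmat chevD4 i0 i2 = 0 ∧ cmat chevD4 i1 i2 = -1 ∧ cmat chevD4 i2 i2 = 2 ∧ cmat chevD4 i3 i2 = 0) ∧
    (cmat chevD4 i0 i3 = 0 ∧ cmat chevD4 i1 i3 = -1 ∧ cmat chevD4 i2 i3 = 0 ∧ cmat chevD4 i3 i3 = 2) := by
  unfold cmat
  decide +kernel

theorem sqz (u : F3ˣ) : u ^ (2 : ℤ) = 1 := by
  have : ∀ u : F3ˣ, u * u = 1 := by decide
  rw [zpow_two, this]

theorem mon_D4 (e : Fin chevD4.rank → F3ˣ) : mon (cmat chevD4) e i0 = (e i1)⁻¹ ∧ mon (cmat chevD4) e i2 = (e i1)⁻¹ ∧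
    mon (cmat chevD4) e i3 = (e i1)⁻¹ ∧ mon (cmat chevD4) e i1 = (e i0)⁻¹ * (e i2)⁻¹ * (e i3)⁻¹ := by
  have h : ∀ j : Fin chevD4.rank, mon (cmat chevD4) e j = e i0 ^ cmat chevD4 i0 j * e i1 ^ cmat chevD4 i1 j *
      e i2 ^ cmat chevD4 i2 j * e i3 ^ cmat chevD4 i3 j := fun j =>
    (mon_apply _ _ _).trans (Fin.prod_univ_four (fun i : Fin 4 => e i ^ cmat chevD4 i j))
  obtain ⟨⟨a0, a1, a2, a3⟩, ⟨b0, b1, b2, b3⟩, ⟨c0, c1, c2, c3⟩, ⟨d0, d1, d2, d3⟩⟩ := cmat_D4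
  refine ⟨?_, ?_, ?_, ?_⟩
  · rw [h, a0, a1, a2, a3, sqz, _root_.zpow_zero, _root_.zpow_zero, _root_.zpow_neg_one, one_mul, mul_one, mul_one]
  · rw [h, c0, c1, c2, c3, sqz, _root_.zpow_zero, _root_.zpow_zero, _root_.zpow_neg_one, one_mul, mul_one, mul_one]
  · rw [h, d0, d1, d2, d3, sqz, _root_.zpow_zero, _root_.zpow_zero, _root_.zpow_neg_one, one_mul, mul_one, mul_one]
  · rw [h, b0, b1, b2, b3, sqz, _root_.zpow_neg_one, _root_.zpow_neg_one, _root_.zpow_neg_one, mul_one]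

theorem perm4' : ∀ ρ : Equiv.Perm (Fin 4), ρ 1 = 1 → ρ * ρ * ρ = 1 → ρ ≠ 1 →
    (ρ 0 = 2 ∧ ρ 2 = 3 ∧ ρ 3 = 0) ∨ (ρ 0 = 3 ∧ ρ 3 = 2 ∧ ρ 2 = 0) := by decide +kernel

theorem perm4 (ρ : Equiv.Perm (Fin chevD4.rank)) (h1 : ρ i1 = i1) (h2 : ρ * ρ * ρ = 1) (h3 : ρ ≠ 1) :
    (ρ i0 = i2 ∧ ρ i2 = i3 ∧ ρ i3 = i0) ∨ (ρ i0 = i3 ∧ ρ i3 = i2 ∧ ρ i2 = i0) := perm4' ρ h1 h2 h3

theorem arith3 : ∀ a b c u : F3, a ≠ 0 → b ≠ 0 → c ≠ 0 → u ≠ 0 → a = u * b → b = u * c → c = u * a → a = b ∧ b = c := by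
  decide +kernel

theorem perm_one' {θ : A4} : permHom goodD4 dD4 θ i1 = i1 := perm_one

/-- coefficients of commuting data -/
theorem coef_eq {D : ChevalleyDatum} {H : Good D} {F : Type*} [Field F] {θ δ κ : MulAut ↥(D.group F)}
    {ρ : Equiv.Perm (Fin D.rank)} {c c1 m : Fin D.rank → F}
    (h1 : IsDat H θ ρ c1 (fun _ => RingEquiv.refl F)) (h2 : IsDat H δ 1 c (fun _ => RingEquiv.refl F))
    (he : IsDat H κ 1 m (fun _ => RingEquiv.refl F)) (hmul : κ * (δ * θ) = θ * δ) (i : Fin D.rank) :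
    c i = m (ρ i) * c (ρ i) := by
  have d1 := dat_mul he (dat_mul h2 h1)
  rw [hmul] at d1
  have d2 := (d1.unique (dat_mul h1 h2)).2.1
  have h3 := congrFun d2 i
  have h4 : m (ρ i) * (c (ρ i) * c1 i) = c1 i * c i := h3
  have h6 := (h1 i).1
  apply mul_left_cancel₀ h6
  rw [← h4]; ring

/-- the action of elements of order three -/
theorem fix_DN : ∀ p : Cfsg.Out ↥(chevD4.group F3), p ∉ DN → p ^ 3 = 1 → ∀ x ∈ DN, p * x = x * p → x = 1 := by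
  intro p hp hp3 x hx hc
  obtain ⟨θ, rfl⟩ := outHom_surj goodD4 dD4 rf4 p
  obtain ⟨δ, hδ, rfl⟩ := hx
  have hδ' : permHom goodD4 dD4 δ = 1 := hδ
  obtain ⟨c1, h1⟩ := dat θ
  obtain ⟨c, h2⟩ := dat δ
  rw [hδ'] at h2
  have hρf : permHom goodD4 dD4 θ i1 = i1 := perm_one'
  have hρ1 : permHom goodD4 dD4 θ ≠ 1 := fun h => hp (mem_DN.2 h)
  have hρ3 : permHom goodD4 dD4 θ * permHom goodD4 dD4 θ * permHom goodD4 dD4 θ = 1 := by
    have h3 : θ ^ 3 ∈ (outHom goodD4 dD4 (F := F3)).ker := by rw [MonoidHom.mem_ker, map_pow]; exact hp3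
    have h4 := ker_out_le h3
    rw [MonoidHom.mem_ker, map_pow, pow_succ, pow_two] at h4
    exact h4
  generalize permHom goodD4 dD4 θ = ρ at *
  -- the commutator
  have hκ : outHom goodD4 dD4 (θ * δ * θ⁻¹ * δ⁻¹) = 1 := by
    rw [map_mul, map_mul, map_mul, map_inv, map_inv, hc]; group
  obtain ⟨e, he⟩ := ker_dat goodD4 dD4 rf4 hκ
  obtain ⟨m0, m2, m3, m1⟩ := mon_D4 e
  have hmul : (θ * δ * θ⁻¹ * δ⁻¹ : A4).1 * (δ.1 * θ.1) = θ.1 * δ.1 := by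
    have : (θ * δ * θ⁻¹ * δ⁻¹) * (δ * θ) = θ * δ := by group
    exact congrArg Subtype.val this
  have key : ∀ i : Fin chevD4.rank, c i = ((mon (cmat chevD4) e (ρ i) : F3ˣ) : F3) * c (ρ i) := coef_eq h1 h2 he hmul
  have hne : ∀ i : Fin chevD4.rank, c i ≠ 0 := fun i => (h2 i).1
  have hu : ((((e i1)⁻¹ : F3ˣ)) : F3) ≠ 0 := Units.ne_zero _
  have hcc : c i0 = c i2 ∧ c i2 = c i3 := by
    have k0 := key i0
    have k2 := key i2
    have k3 := key i3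
    rcases perm4 ρ hρf hρ3 hρ1 with ⟨a0, a2, a3⟩ | ⟨a0, a3, a2⟩
    · rw [a0, m2] at k0
      rw [a2, m3] at k2
      rw [a3, m0] at k3
      exact arith3 _ _ _ _ (hne _) (hne _) (hne _) hu k0 k2 k3
    · rw [a0, m3] at k0
      rw [a2, m0] at k2
      rw [a3, m2] at k3
      obtain ⟨b1, b2⟩ := arith3 _ _ _ _ (hne i0) (hne i3) (hne i2) hu k0 k3 k2
      exact ⟨b1.trans b2, b2.symm⟩
  -- `δ` is inner
  obtain ⟨u0, hu0⟩ : ∃ u : F3ˣ, (u : F3) = c i0 := ⟨Units.mk0 _ (hne i0), rfl⟩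
  obtain ⟨u1, hu1⟩ : ∃ u : F3ˣ, (u : F3) = c i1 := ⟨Units.mk0 _ (hne i1), rfl⟩
  obtain ⟨e', e0, e1, e2, e3⟩ : ∃ e' : Fin chevD4.rank → F3ˣ, e' i0 = u1⁻¹ ∧ e' i1 = u0⁻¹ ∧ e' i2 = 1 ∧ e' i3 = 1 := by
    refine ⟨(![u1⁻¹, u0⁻¹, 1, 1] : Fin 4 → F3ˣ), rfl, rfl, rfl, rfl⟩
  obtain ⟨m0, m2, m3, m1⟩ := mon_D4 e'
  rw [e1, inv_inv] at m0 m2 m3
  rw [e0, e2, e3, inv_inv, inv_one, mul_one, mul_one] at m1
  apply out_of_dat goodD4 dD4 rf4 (e := e')
  have hcoef : (fun i : Fin chevD4.rank => ((mon (cmat chevD4) e' i : F3ˣ) : F3)) = c := by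
    funext i
    rcases i_cases i with rfl | rfl | rfl | rfl
    · rw [m0, hu0]
    · rw [m1, hu1]
    · rw [m2, hu0, hcc.1]
    · rw [m3, hu0, hcc.1, hcc.2]
  rw [hcoef]
  exact h2

end Cfsg.Agent.OutD4
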