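import Cfsg.Prelude.Def_KGroupFacts
import Mathlib.GroupTheory.QuotientGroup.Basic
import Mathlib.Algebra.Group.Subgroup.Basic
import Mathlib.Tactic.Group

set_option autoImplicit false

/-!
Uniqueness of groups with a given generalized Fitting subgroup.
-/

namespace Cfsg.Agent.OutD4

open Subgroup

section one

variable {X G : Type*} [Group X] [Group G] (hZ : center X = ⊥) (N : Subgroup G) [N.Normal]
  (hC : centralizer (N : Set G) ≤ N) (e : N ≃* X)

/-- the action on `X` -/
noncomputable def act : G →* MulAut X := (MulAut.congr e).toMonoidHom.comp (MulAut.conjNormal (H := N))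

theorem act_apply (g : G) (x : X) : act N e g x = e (MulAut.conjNormal g (e.symm x)) := rfl

theorem act_mem {n : G} (hn : n ∈ N) : act N e n = MulAut.conj (e ⟨n, hn⟩) := by
  apply MulEquiv.ext
  intro x
  rw [act_apply, MulAut.conj_apply]
  have : MulAut.conjNormal n (e.symm x) = (⟨n, hn⟩ : N) * e.symm x * (⟨n, hn⟩ : N)⁻¹ := Subtype.ext (by simp)
  rw [this, map_mul, map_mul, map_inv, MulEquiv.apply_symm_apply]

include hZ hC in
theorem act_inj : Function.Injective (act N e) := by
  rw [injective_iff_map_eq_one]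
  intro g hg
  have h1 : ∀ n ∈ N, g * n * g⁻¹ = n := by
    intro n hn
    have h2 := DFunLike.congr_fun hg (e ⟨n, hn⟩)
    rw [act_apply, MulEquiv.symm_apply_apply] at h2
    have h3 := e.injective h2
    have h4 := congrArg Subtype.val h3
    simpa using h4
  have hgN : g ∈ N := hC (mem_centralizer_iff.2 fun n hn => by
    have := h1 n hn
    rw [mul_inv_eq_iff_eq_mul] at this
    exact this.symm)
  have h3 : e ⟨g, hgN⟩ ∈ center X := by
    rw [mem_center_iff]
    intro x
    obtain ⟨⟨n, hn⟩, rfl⟩ := e.surjective x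
    rw [← map_mul, ← map_mul]
    congr 1
    apply Subtype.ext
    show n * g = g * n
    have := h1 n hn
    rw [mul_inv_eq_iff_eq_mul] at this
    exact this.symm
  rw [hZ, mem_bot, map_eq_one_iff e e.injective] at h3
  exact congrArg Subtype.val h3

/-- the map to the outer automorphism group -/
noncomputable def outAct : G →* Cfsg.Out X := (QuotientGroup.mk' (Cfsg.Inn X)).comp (act N e)

include hZ hC in
theorem ker_outAct : (outAct N e).ker = N := by
  ext g
  constructor
  · intro hg
    obtain ⟨x, hx⟩ : act N e g ∈ Cfsg.Inn X := (QuotientGroup.eq_one_iff _).1 hg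
    obtain ⟨⟨n, hn⟩, rfl⟩ := e.surjective x
    rw [← act_mem N e hn] at hx
    rw [← act_inj hZ N hC e hx]
    exact hn
  · intro hg
    exact (QuotientGroup.eq_one_iff _).2 ⟨e ⟨g, hg⟩, (act_mem N e hg).symm⟩

theorem mem_range_act {α : MulAut X} : α ∈ (act N e).range ↔ (α : Cfsg.Out X) ∈ (outAct N e).range := by
  constructor
  · rintro ⟨g, rfl⟩
    exact ⟨g, rfl⟩
  · rintro ⟨g, hg⟩
    have h1 : ((act N e g : MulAut X) : Cfsg.Out X) = (α : Cfsg.Out X) := hg
    rw [QuotientGroup.eq] at h1
    obtain ⟨x, hx⟩ := h1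
    obtain ⟨⟨n, hn⟩, rfl⟩ := e.surjective x
    rw [← act_mem N e hn] at hx
    refine ⟨g * n, ?_⟩
    rw [map_mul, hx]; group

end one

theorem iso_of_out {X G G' : Type*} [Group X] [Group G] [Group G'] (hZ : center X = ⊥)
    {T : Type*} [Group T]
    (hconj : ∀ S₁ S₂ : Subgroup (Cfsg.Out X), Nonempty (S₁ ≃* T) → Nonempty (S₂ ≃* T) →
      ∃ g : Cfsg.Out X, ∀ x, x ∈ S₁ ↔ g * x * g⁻¹ ∈ S₂)
    (N : Subgroup G) [N.Normal] (hC : centralizer (N : Set G) ≤ N) (e : N ≃* X) (q : Nonempty (G ⧸ N ≃* T))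
    (N' : Subgroup G') [N'.Normal] (hC' : centralizer (N' : Set G') ≤ N') (e' : N' ≃* X) (q' : Nonempty (G' ⧸ N' ≃* T)) :
    Nonempty (G ≃* G') := by
  have s1 : Nonempty ((outAct N e).range ≃* T) := by
    obtain ⟨q⟩ := q
    exact ⟨((QuotientGroup.quotientKerEquivRange (outAct N e)).symm.trans
      (QuotientGroup.quotientMulEquivOfEq (ker_outAct hZ N hC e))).trans q⟩
  have s2 : Nonempty ((outAct N' e').range ≃* T) := by
    obtain ⟨q⟩ := q'
    exact ⟨((QuotientGroup.quotientKerEquivRange (outAct N' e')).symm.trans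
      (QuotientGroup.quotientMulEquivOfEq (ker_outAct hZ N' hC' e'))).trans q⟩
  obtain ⟨g, hg⟩ := hconj _ _ s1 s2
  obtain ⟨γ, rfl⟩ := QuotientGroup.mk_surjective g
  have key : ∀ α : MulAut X, α ∈ (act N e).range ↔ γ * α * γ⁻¹ ∈ (act N' e').range := by
    intro α
    rw [mem_range_act, mem_range_act, hg]
    rfl
  let f : G →* (act N' e').range :=
    { toFun := fun x => ⟨γ * act N e x * γ⁻¹, (key _).1 ⟨x, rfl⟩⟩
      map_one' := Subtype.ext (by
        show γ * act N e 1 * γ⁻¹ = 1
        rw [map_one, mul_one, mul_inv_cancel])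
      map_mul' := fun x y => Subtype.ext (by
        show γ * act N e (x * y) * γ⁻¹ = (γ * act N e x * γ⁻¹) * (γ * act N e y * γ⁻¹)
        rw [map_mul]; group) }
  have hf : Function.Bijective f := by
    constructor
    · intro x y hxy
      have h1 : γ * act N e x * γ⁻¹ = γ * act N e y * γ⁻¹ := congrArg Subtype.val hxy
      have h2 := mul_left_cancel (mul_right_cancel h1)
      exact act_inj hZ N hC e h2
    · rintro ⟨α, hα⟩
      have h1 : γ⁻¹ * α * γ ∈ (act N e).range := by
        rw [key]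
        have : γ * (γ⁻¹ * α * γ) * γ⁻¹ = α := by group
        rw [this]; exact hα
      obtain ⟨x, hx⟩ := h1
      refine ⟨x, Subtype.ext ?_⟩
      show γ * act N e x * γ⁻¹ = α
      rw [hx]; group
  have hr : Function.Bijective (act N' e').rangeRestrict :=
    ⟨fun x y hxy => act_inj hZ N' hC' e' (congrArg Subtype.val hxy), (act N' e').rangeRestrict_surjective⟩
  exact ⟨(MulEquiv.ofBijective f hf).trans (MulEquiv.ofBijective _ hr).symm⟩

end Cfsg.Agent.OutD4
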