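import Cfsg.Agent.OutD4.D4
import Cfsg.Agent.OutD4.Uniq
import Cfsg.Agent.S1054

set_option autoImplicit false
set_option maxRecDepth 100000

/-!
Uniqueness for type D4 over the field of three elements.
-/

namespace Cfsg.Agent.OutD4

open Cfsg.Lie Subgroup

theorem mem_list : chevD4 ∈ [chevD4, chevF4, chevE6, chevE7, chevE8] := List.mem_cons_self

theorem center_bot {X : Type*} [Group X] (hs : IsSimpleGroup X) (hnc : ¬ IsMulCommutative X) : center X = ⊥ := by
  rcases hs.eq_bot_or_eq_top_of_normal (center X) inferInstance with h | h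
  · exact h
  · exfalso
    apply hnc
    exact ⟨⟨fun a b => (mem_center_iff.1 (by rw [h]; exact mem_top b) a)⟩⟩

theorem center_D4 : center ↥(chevD4.group F3) = ⊥ := by
  obtain ⟨hs, hnc⟩ := Cfsg.Agent.S1054.result (F := F3) chevD4 mem_list
  exact center_bot hs hnc

theorem fin_out {X : Type*} [Group X] [Finite X] : Finite (Cfsg.Out X) := inferInstance

theorem fin_D4 : Finite ↥(chevD4.group F3) := inferInstance

theorem conj_D4 (S₁ S₂ : Subgroup (Cfsg.Out ↥(chevD4.group F3))) (h₁ : Nonempty (S₁ ≃* Equiv.Perm (Fin 3)))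
    (h₂ : Nonempty (S₂ ≃* Equiv.Perm (Fin 3))) : ∃ g : Cfsg.Out ↥(chevD4.group F3), ∀ x, x ∈ S₁ ↔ g * x * g⁻¹ ∈ S₂ := by
  have : Finite ↥(chevD4.group F3) := fin_D4
  have : Finite (Cfsg.Out ↥(chevD4.group F3)) := fin_out
  obtain ⟨e₁⟩ := h₁
  obtain ⟨e₂⟩ := h₂
  exact conj_S3 (N := DN) sq_DN index_DN fix_DN e₁ e₂

theorem main {G G' : Type*} [Group G] [Group G'] (N : Subgroup G) [N.Normal] (hC : centralizer (N : Set G) ≤ N)
    (e : N ≃* ↥(chevD4.group F3)) (q : Nonempty (G ⧸ N ≃* Equiv.Perm (Fin 3))) (N' : Subgroup G') [N'.Normal]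
    (hC' : centralizer (N' : Set G') ≤ N') (e' : N' ≃* ↥(chevD4.group F3)) (q' : Nonempty (G' ⧸ N' ≃* Equiv.Perm (Fin 3))) :
    Nonempty (G ≃* G') :=
  iso_of_out center_D4 conj_D4 N hC e q N' hC' e' q'

end Cfsg.Agent.OutD4
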