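import Mathlib.GroupTheory.Sylow
import Mathlib.GroupTheory.SpecificGroups.Cyclic
import Mathlib.GroupTheory.Index

set_option autoImplicit false

/-!
Complements isomorphic to the symmetric group on three letters.
-/

namespace Cfsg.Agent.OutD4

open Subgroup

theorem perm3_a : ∀ x : Equiv.Perm (Fin 3), x ≠ 1 → x * x = 1 → ∃ y : Equiv.Perm (Fin 3),
    (x * (y * x * y⁻¹)) * (x * (y * x * y⁻¹)) ≠ 1 := by decide +kernel

/-- the three cycle -/
def cyc3 : Equiv.Perm (Fin 3) := ⟨![1, 2, 0], ![2, 0, 1], by decide, by decide⟩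

theorem cyc3_pow : cyc3 ^ 3 = 1 ∧ cyc3 ≠ 1 := by decide

theorem cyc3_conj : ∀ y : Equiv.Perm (Fin 3), y * cyc3 * y⁻¹ = cyc3 ∨ y * cyc3 * y⁻¹ = cyc3 * cyc3 := by decide

variable {O : Type*} [Group O]

section

variable {N : Subgroup O} [N.Normal] (h2 : ∀ x ∈ N, x * x = 1) {S : Subgroup O} (e : S ≃* Equiv.Perm (Fin 3))
include h2 e

theorem inf_eq {x : O} (hx : x ∈ S) (hN : x ∈ N) : x = 1 := by
  by_contra hne
  have h1 : e ⟨x, hx⟩ ≠ 1 := by
    intro h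
    have := (map_eq_one_iff e e.injective).1 h
    exact hne (congrArg Subtype.val this)
  have h3 : e ⟨x, hx⟩ * e ⟨x, hx⟩ = 1 := by
    rw [← map_mul]
    have : (⟨x, hx⟩ : S) * ⟨x, hx⟩ = 1 := Subtype.ext (h2 x hN)
    rw [this, map_one]
  obtain ⟨y, hy⟩ := perm3_a _ h1 h3
  apply hy
  obtain ⟨z, rfl⟩ := e.surjective y
  rw [← map_inv, ← map_mul, ← map_mul, ← map_mul, ← map_mul]
  have h4 : (x * ((z : O) * x * (z : O)⁻¹)) ∈ N :=
    mul_mem hN (Subgroup.Normal.conj_mem inferInstance x hN z)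
  have h5 : ((⟨x, hx⟩ : S) * (z * ⟨x, hx⟩ * z⁻¹)) * ((⟨x, hx⟩ : S) * (z * ⟨x, hx⟩ * z⁻¹)) = 1 := Subtype.ext (h2 _ h4)
  rw [h5, map_one]

/-- a generator of the normal subgroup of order three -/
theorem exists_three : ∃ p ∈ S, orderOf p = 3 ∧ p ∉ N ∧ ∀ s ∈ S, s * p * s⁻¹ ∈ zpowers p := by
  refine ⟨(e.symm cyc3 : S), (e.symm cyc3).2, ?_, ?_, ?_⟩
  · apply orderOf_eq_prime
    · rw [← Subgroup.coe_pow, ← map_pow, cyc3_pow.1, map_one]; rfl
    · intro h
      apply cyc3_pow.2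
      have : e.symm cyc3 = 1 := Subtype.ext h
      exact (map_eq_one_iff e.symm e.symm.injective).1 this
  · intro h
    have h3 := inf_eq h2 e (e.symm cyc3).2 h
    apply cyc3_pow.2
    have : e.symm cyc3 = 1 := Subtype.ext h3
    exact (map_eq_one_iff e.symm e.symm.injective).1 this
  · intro s hs
    have h3 : (⟨s, hs⟩ : S) * e.symm cyc3 * (⟨s, hs⟩ : S)⁻¹ = e.symm (e ⟨s, hs⟩ * cyc3 * (e ⟨s, hs⟩)⁻¹) := by
      rw [map_mul, map_mul, map_inv, MulEquiv.symm_apply_apply]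
    have h4 : s * (e.symm cyc3 : S) * s⁻¹ = (e.symm (e ⟨s, hs⟩ * cyc3 * (e ⟨s, hs⟩)⁻¹) : S) := congrArg Subtype.val h3
    rw [h4]
    rcases cyc3_conj (e ⟨s, hs⟩) with h | h
    · rw [h]; exact mem_zpowers _
    · rw [h, map_mul]
      exact mul_mem (mem_zpowers _) (mem_zpowers _)

end

variable [Finite O] {N : Subgroup O} [N.Normal] (h2 : ∀ x ∈ N, x * x = 1) (hidx : N.index = 6)
  (hfix : ∀ p : O, p ∉ N → p ^ 3 = 1 → ∀ x ∈ N, p * x = x * p → x = 1)
include h2 hidx hfix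

theorem card_norm_le {p : O} (hp : orderOf p = 3) (hpN : p ∉ N) : Nat.card (normalizer (zpowers p : Set O)) ≤ 6 := by
  have hinj : Function.Injective ((QuotientGroup.mk' N).comp (normalizer (zpowers p : Set O)).subtype) := by
    rw [injective_iff_map_eq_one]
    rintro ⟨x, hx⟩ h
    have hxN : x ∈ N := (QuotientGroup.eq_one_iff _).1 h
    have h1 : x * p * x⁻¹ ∈ zpowers p := (mem_normalizer_iff.1 hx p).1 (mem_zpowers p)
    have h3 : x * p * x⁻¹ * p⁻¹ ∈ zpowers p := mul_mem h1 (inv_mem (mem_zpowers p))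
    have h4 : x * p * x⁻¹ * p⁻¹ ∈ N := by
      have e1 : x * p * x⁻¹ * p⁻¹ = x * (p * x⁻¹ * p⁻¹) := by group
      rw [e1]
      exact mul_mem hxN (Subgroup.Normal.conj_mem inferInstance _ (inv_mem hxN) p)
    have h5 : x * p * x⁻¹ * p⁻¹ = 1 := by
      have a1 := h2 _ h4
      have a2 : (x * p * x⁻¹ * p⁻¹) ^ 3 = 1 := by
        obtain ⟨k, hk⟩ := h3
        simp only at hk
        rw [← hk, ← zpow_natCast, ← zpow_mul, mul_comm, zpow_mul, zpow_natCast, ← hp, pow_orderOf_eq_one, one_zpow]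
      have a3 : (x * p * x⁻¹ * p⁻¹) ^ 3 = (x * p * x⁻¹ * p⁻¹) * (x * p * x⁻¹ * p⁻¹) * (x * p * x⁻¹ * p⁻¹) := by
        rw [pow_succ, pow_two]
      rw [a3, a1, one_mul] at a2
      exact a2
    have h6 : p * x = x * p := by
      have : x * p * x⁻¹ * p⁻¹ * p * x = 1 * p * x := by rw [h5]
      rw [one_mul] at this
      rw [← this]; group
    exact Subtype.ext (hfix p hpN (by rw [← hp]; exact pow_orderOf_eq_one p) x hxN h6)
  have h1 := Nat.card_le_card_of_injective _ hinj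
  have h3 : Nat.card (O ⧸ N) = 6 := hidx
  rw [h3] at h1
  exact h1

theorem eq_norm {S : Subgroup O} (e : S ≃* Equiv.Perm (Fin 3)) {p : O} (hp : orderOf p = 3) (hpN : p ∉ N)
    (hS : ∀ s ∈ S, s * p * s⁻¹ ∈ zpowers p) : S = normalizer (zpowers p : Set O) := by
  have hle : S ≤ normalizer (zpowers p : Set O) := by
    intro s hs
    have key : ∀ s ∈ S, ∀ x ∈ zpowers p, s * x * s⁻¹ ∈ zpowers p := by
      rintro s hs _ ⟨k, rfl⟩
      simp only
      rw [← conj_zpow]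
      exact zpow_mem (hS s hs) k
    rw [mem_normalizer_iff]
    intro x
    constructor
    · exact key s hs x
    · intro h
      have := key s⁻¹ (inv_mem hs) _ h
      have e1 : s⁻¹ * (s * x * s⁻¹) * s⁻¹⁻¹ = x := by group
      rwa [e1] at this
  apply Subgroup.eq_of_le_of_card_ge hle
  have h1 : Nat.card S = 6 := by
    rw [Nat.card_congr e.toEquiv, Nat.card_eq_fintype_card]; decide
  rw [h1]
  exact card_norm_le h2 hidx hfix hp hpN

/-- all subgroups isomorphic to the symmetric group are conjugate -/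
theorem conj_S3 {S₁ S₂ : Subgroup O} (e₁ : S₁ ≃* Equiv.Perm (Fin 3)) (e₂ : S₂ ≃* Equiv.Perm (Fin 3)) :
    ∃ g : O, ∀ x, x ∈ S₁ ↔ g * x * g⁻¹ ∈ S₂ := by
  obtain ⟨p₁, hp₁, o₁, n₁, c₁⟩ := exists_three h2 e₁
  obtain ⟨p₂, hp₂, o₂, n₂, c₂⟩ := exists_three h2 e₂
  have : Fact (Nat.Prime 3) := ⟨Nat.prime_three⟩
  -- `⟨p⟩` is a Sylow subgroup
  have hN : ¬ 3 ∣ Nat.card N := by
    intro h
    obtain ⟨x, hx⟩ := exists_prime_orderOf_dvd_card' 3 h
    have h1 : x ^ 2 = 1 := Subtype.ext (by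
      show ((x ^ 2 : N) : O) = 1
      rw [Subgroup.coe_pow, pow_two]; exact h2 x x.2)
    have h3 := orderOf_dvd_of_pow_eq_one h1
    rw [hx] at h3
    omega
  have hcard : Nat.card O = 6 * Nat.card N := by rw [← hidx, N.index_mul_card]
  have hsyl : ∀ p : O, orderOf p = 3 → ¬ 3 ∣ (zpowers p).index := by
    intro p hp h
    have h1 := (zpowers p).index_mul_card
    rw [Nat.card_zpowers, hp, hcard] at h1
    obtain ⟨k, hk⟩ := h
    rw [hk] at h1
    apply hN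
    have h3 : 3 * k = 2 * Nat.card N := by omega
    exact (Nat.Coprime.dvd_mul_left (by norm_num : Nat.Coprime 3 2)).1 ⟨k, h3.symm⟩
  have hpg : ∀ p : O, orderOf p = 3 → IsPGroup 3 (zpowers p) := fun p hp => by
    apply IsPGroup.of_card (n := 1)
    rw [Nat.card_zpowers, hp, pow_one]
  let P : ∀ p : O, orderOf p = 3 → Sylow 3 O := fun p hp => (hpg p hp).toSylow (hsyl p hp)
  obtain ⟨g, hg⟩ := MulAction.exists_smul_eq O (P p₁ o₁) (P p₂ o₂)
  have hg' : ∀ x, x ∈ zpowers p₁ ↔ g * x * g⁻¹ ∈ zpowers p₂ := by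
    intro x
    have h1 : ((P p₂ o₂ : Sylow 3 O) : Subgroup O) = zpowers p₂ := rfl
    rw [← h1, ← hg, Sylow.coe_subgroup_smul, Subgroup.mem_pointwise_smul_iff_inv_smul_mem]
    have h3 : (MulAut.conj g)⁻¹ • (g * x * g⁻¹) = x := by
      rw [← map_inv]
      show MulAut.conj g⁻¹ (g * x * g⁻¹) = x
      rw [MulAut.conj_apply]; group
    rw [h3]; rfl
  refine ⟨g, fun x => ?_⟩
  rw [eq_norm h2 hidx hfix e₁ o₁ n₁ c₁, eq_norm h2 hidx hfix e₂ o₂ n₂ c₂, mem_normalizer_iff, mem_normalizer_iff]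
  constructor
  · intro h y
    have h1 := h (g⁻¹ * y * g)
    rw [hg', hg'] at h1
    have e1 : g * (g⁻¹ * y * g) * g⁻¹ = y := by group
    have e2 : g * (x * (g⁻¹ * y * g) * x⁻¹) * g⁻¹ = g * x * g⁻¹ * y * (g * x * g⁻¹)⁻¹ := by group
    rwa [e1, e2] at h1
  · intro h y
    have h1 := h (g * y * g⁻¹)
    rw [hg', hg']
    have e2 : g * x * g⁻¹ * (g * y * g⁻¹) * (g * x * g⁻¹)⁻¹ = g * (x * y * x⁻¹) * g⁻¹ := by group
    rwa [e2] at h1

end Cfsg.Agent.OutD4
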